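import Cfsg.Prelude.Def_OddOrderLocal

/-!
# Interface for BG section 14 (Theorem 14.7 block)

`HNNNN G` is the statement of row `SNNNN` for the group `G` (everything after `hG`), so that library
files can be written before these rows are available; a row file discharges `HNNNN G` by
`fun _ .. => Cfsg.Agent.SNNNN.result hG _ ..`.
-/

set_option autoImplicit false
set_option linter.unusedVariables false

namespace Cfsg.Agent.Lib.Helper25.BG14

open Cfsg

universe u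

/-- The statement of row S1351 for `G` (to be discharged by `Cfsg.Agent.S1351.result hG`). -/
def H1351 (G : Type u) [Group G] [Finite G] : Prop :=
  ∀ (M : Subgroup G) (hM : IsCoatom M),
    (∃ K : Subgroup G, Cfsg.IsPiHallOf (Cfsg.kappa M) K M) ∧
      ∀ K : Subgroup G, Cfsg.IsPiHallOf (Cfsg.kappa M) K M → IsCyclic K

/-- The statement of row S1352 for `G` (to be discharged by `Cfsg.Agent.S1352.result hG`). -/
def H1352 (G : Type u) [Group G] [Finite G] : Prop :=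
  ∀ (M : Subgroup G) (hM : IsCoatom M) (K : Subgroup G)
    (hKc : IsCyclic K) (hK : Cfsg.IsPiHallOf (Cfsg.kappa M) K M),
    (∃ U : Subgroup G, Cfsg.IsSigmaDecomposition M K U) ∧
      ∀ U : Subgroup G, Cfsg.IsSigmaDecomposition M K U → M ≤ Subgroup.normalizer ((U ⊔ Cfsg.sigmaCore M : Subgroup G) : Set G)

/-- The statement of row S1353 for `G` (to be discharged by `Cfsg.Agent.S1353.result hG`). -/
def H1353 (G : Type u) [Group G] [Finite G] : Prop :=
  ∀ (M : Subgroup G) (hM : IsCoatom M) (K U : Subgroup G) (hKU : Cfsg.IsSigmaDecomposition M K U),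
    ∀ k ∈ K, k ≠ 1 → U ⊓ Subgroup.centralizer ({k} : Set G) = ⊥

/-- The statement of row S1354 for `G` (to be discharged by `Cfsg.Agent.S1354.result hG`). -/
def H1354 (G : Type u) [Group G] [Finite G] : Prop :=
  ∀ (M : Subgroup G) (hM : IsCoatom M) (K : Subgroup G)
    (hKc : IsCyclic K) (hK : Cfsg.IsPiHallOf (Cfsg.kappa M) K M),
    Cfsg.sigmaCore M ⊓ Subgroup.centralizer (K : Set G) ≠ ⊥ ∧
      (K ≠ ⊥ → ∀ k ∈ K, k ≠ 1 →
        M ⊓ Subgroup.centralizer ({k} : Set G) = K ⊔ (Cfsg.sigmaCore M ⊓ Subgroup.centralizer (K : Set G)))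

/-- The statement of row S1377 for `G` (to be discharged by `Cfsg.Agent.S1377.result hG`). -/
def H1377 (G : Type u) [Group G] [Finite G] : Prop :=
  ∀ (M : Subgroup G) (hM : IsCoatom M),
    Set.ncard (Cfsg.tildeOf M ((Cfsg.sigmaCore M : Set G) \ {1})) = (Nat.card (Cfsg.sigmaCore M) - 1) * M.index

/-- The statement of row S1378 for `G`. -/
def H1378 (G : Type u) [Group G] [Finite G] : Prop :=
    (∀ p : ℕ, p.Prime → p ∣ Nat.card G → ∃ M : Subgroup G, IsCoatom M ∧ p ∈ Cfsg.sigma M) ∧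
      ∀ M N : Subgroup G, IsCoatom M → IsCoatom N → (Cfsg.sigma M ∩ Cfsg.sigma N).Nonempty → ∃ g : G, N = M.map (MulAut.conj g).toMonoidHom

/-- The statement of row S1429 for `G` (to be discharged by `Cfsg.Agent.S1429.result hG`). -/
def H1429 (G : Type u) [Group G] [Finite G] : Prop :=
  ∀ (M : Subgroup G) (hM : IsCoatom M) (hP1 : ¬ (∀ q : ℕ, q.Prime → q ∣ Nat.card M → q ∉ Cfsg.sigma M → q ∈ Cfsg.kappa M))
    (p : ℕ) [Fact p.Prime] (hpM : p ∣ Nat.card M) (hp : p ∉ Cfsg.sigma M ∪ Cfsg.kappa M) (S : Sylow p M),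
    Nat.card ↥(Subgroup.closure {x : G | x ∈ (S : Subgroup M).map M.subtype ∧ x ^ p = 1}) ≤ p ^ 2 ∧
      Cfsg.sigmaCore M ⊓ Subgroup.centralizer ((Subgroup.closure {x : G | x ∈ (S : Subgroup M).map M.subtype ∧ x ^ p = 1} : Subgroup G) : Set G) = ⊥ ∧
      Group.IsNilpotent (Cfsg.sigmaCore M)

/-- The statement of row S1430 for `G` (to be discharged by `Cfsg.Agent.S1430.result hG`). -/
def H1430 (G : Type u) [Group G] [Finite G] : Prop :=
  ∀ (M : Subgroup G) (hM : IsCoatom M) (K : Subgroup G) (hK : Cfsg.IsPiHallOf (Cfsg.kappa M) K M) (hK1 : K ≠ ⊥),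
    (∀ k ∈ K, k ≠ 1 → Cfsg.sigmaCore M ⊓ Subgroup.centralizer ({k} : Set G) = (Cfsg.sigmaCore M ⊓ Subgroup.centralizer (K : Set G))) ∧
      (∃ U : Subgroup G, IsMulCommutative U ∧ Cfsg.IsPiHallOf {q | q.Prime ∧ q ∉ Cfsg.kappa M ∧ q ∉ Cfsg.sigma M} U M ∧
        K ≤ Subgroup.normalizer (U : Set G) ∧ ∀ k ∈ K, k ≠ 1 → U ⊓ Subgroup.centralizer ({k} : Set G) = ⊥) ∧
      ∀ X : Subgroup G, X ≤ K → (Nat.card X).Prime →
        M ⊓ Subgroup.normalizer (X : Set G) = K ⊔ (Cfsg.sigmaCore M ⊓ Subgroup.centralizer (K : Set G)) ∧ M ⊓ Subgroup.normalizer (K : Set G) = K ⊔ (Cfsg.sigmaCore M ⊓ Subgroup.centralizer (K : Set G)) ∧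
        ∀ Mstar : Subgroup G, IsCoatom Mstar → Subgroup.normalizer (X : Set G) ≤ Mstar → X ≤ Cfsg.sigmaCore Mstar

/-- The statement of row S1431 for `G` (to be discharged by `Cfsg.Agent.S1431.result hG`). -/
def H1431 (G : Type u) [Group G] [Finite G] : Prop :=
  ∀ (M : Subgroup G) (hM : IsCoatom M) (K : Subgroup G) (hK : Cfsg.IsPiHallOf (Cfsg.kappa M) K M) (hK1 : K ≠ ⊥),
    (∀ g : G, g ∉ M → (Cfsg.sigmaCore M ⊓ Subgroup.centralizer (K : Set G)) ⊓ M.map (MulAut.conj g).toMonoidHom = ⊥) ∧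
      (∀ g ∈ M, g ∉ K ⊔ (Cfsg.sigmaCore M ⊓ Subgroup.centralizer (K : Set G)) → K ⊓ K.map (MulAut.conj g).toMonoidHom = ⊥) ∧
      (∀ (p : ℕ), p.Prime → p ∣ Nat.card ↥(Cfsg.sigmaCore M ⊓ Subgroup.centralizer (K : Set G)) → ∀ S : Sylow p ↥(Cfsg.sigmaCore M),
        Cfsg.InUniqueMaximal ((S : Subgroup ↥(Cfsg.sigmaCore M)).map (Cfsg.sigmaCore M).subtype) ∧
        (S : Subgroup ↥(Cfsg.sigmaCore M)).map (Cfsg.sigmaCore M).subtype ≤ M ∧
        ¬ (S : Subgroup ↥(Cfsg.sigmaCore M)).map (Cfsg.sigmaCore M).subtype ≤ (Cfsg.sigmaCore M ⊓ Subgroup.centralizer (K : Set G))) ∧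
      ∀ Y : Subgroup G, (∀ p : ℕ, p.Prime → p ∣ Nat.card Y → p ∈ Cfsg.sigma M) → Y ⊓ (Cfsg.sigmaCore M ⊓ Subgroup.centralizer (K : Set G)) ≠ ⊥ → Y ≤ Cfsg.sigmaCore M

/-- The statement of row S1432 for `G` (to be discharged by `Cfsg.Agent.S1432.result hG`). -/
def H1432 (G : Type u) [Group G] [Finite G] : Prop :=
  ∀ (M : Subgroup G) (hM : IsCoatom M) (x : G) (hx : x ∈ Cfsg.sigmaCore M) (hx1 : x ≠ 1) (x' : G) (hx' : x' ∈ M ⊓ Subgroup.centralizer ({x} : Set G)) (hx'1 : x' ≠ 1)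
    (hσ : ∀ p : ℕ, p.Prime → p ∣ orderOf x' → p ∉ Cfsg.sigma M),
    ((∀ p : ℕ, p.Prime → p ∣ orderOf x' → p ∈ Cfsg.kappa M) ∧ Subgroup.centralizer ({x} : Set G) ≤ M) ∨
      ((∀ p : ℕ, p.Prime → p ∣ orderOf x' → p ∈ Cfsg.tau2 M) ∧
        (∃ L : Subgroup G, IsCoatom L ∧ ∀ p : ℕ, p.Prime → p ∣ orderOf x' → p ∈ Cfsg.sigma L) ∧
        (Subgroup.centralizer ({x'} : Set G) ≤ M ∧ ∀ L : Subgroup G, IsCoatom L → Subgroup.centralizer ({x'} : Set G) ≤ L → L = M))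


/-- First clause of row S1379. -/
def H1379a (G : Type u) [Group G] [Finite G] : Prop :=
  ∀ M N : Subgroup G, IsCoatom M → IsCoatom N → (∀ g : G, N ≠ M.map (MulAut.conj g).toMonoidHom) →
    Cfsg.tildeOf M ((Cfsg.sigmaCore M : Set G) \ {1}) ∩ Cfsg.tildeOf N ((Cfsg.sigmaCore N : Set G) \ {1}) = ∅

/-- BG Proposition 14.2(c): `M` is the only maximal subgroup over `C_G(X)`, `X ≤ K*` of prime order. -/
def H142c (G : Type u) [Group G] [Finite G] : Prop :=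
  ∀ (M : Subgroup G) (hM : IsCoatom M) (K : Subgroup G) (hK : Cfsg.IsPiHallOf (Cfsg.kappa M) K M) (hK1 : K ≠ ⊥)
    (X : Subgroup G), X ≤ Cfsg.sigmaCore M ⊓ Subgroup.centralizer (K : Set G) → (Nat.card X).Prime →
      Subgroup.centralizer (X : Set G) ≤ M ∧
        ∀ L : Subgroup G, IsCoatom L → Subgroup.centralizer (X : Set G) ≤ L → L = M

variable {G : Type u} [Group G] [Finite G]

/-- `K* = C_{M_σ}(K)`. -/
abbrev Ks (M K : Subgroup G) : Subgroup G := Cfsg.sigmaCore M ⊓ Subgroup.centralizer (K : Set G)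

/-- The local hypotheses used for BG Theorem 14.7. -/
structure Hyp (G : Type u) [Group G] [Finite G] : Prop where
  hG : Cfsg.IsMinSimpleOddOrder G
  h1351 : H1351 G
  h1354 : H1354 G
  h1378 : H1378 G
  h1430 : H1430 G
  h1431 : H1431 G
  h1432 : H1432 G
  h142c : H142c G

/-- `PT M K Z`: `M` is maximal, `K ≠ 1` is a Hall `κ(M)`-subgroup of `M` and `Z = K K*`. -/
structure PT (M K Z : Subgroup G) : Prop where
  max : IsCoatom M
  hall : Cfsg.IsPiHallOf (Cfsg.kappa M) K M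
  ne : K ≠ ⊥
  eq : K ⊔ Ks M K = Z

end Cfsg.Agent.Lib.Helper25.BG14
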