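import Mathlib
import Cfsg.Agent.Lib.Helper25.SelfCentralizing
import Cfsg.Agent.Lib.Lead.FrobeniusComplement

/-!
Abstract part of the study of odd order subgroups of `SL₂(F)`, `char F = p`:
a finite group `X` of odd order such that two commuting conjugate elements `z, z'` whose product has order
prime to `p` satisfy `z' = z` or `z z' = 1`.  Then the `p`-elements of `X` are closed under multiplication.
-/

set_option autoImplicit false

namespace Cfsg.Agent.Lib.Helper25

open Cfsg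
open scoped commutatorElement

variable {X : Type*} [Group X] [Finite X]

theorem commute_of_sq_commute (hodd : Odd (Nat.card X)) {g z : X} (h : g ^ 2 * z = z * g ^ 2) :
    g * z = z * g := by
  have ho : Odd (orderOf g) := Odd.of_dvd_nat hodd (orderOf_dvd_natCard g)
  obtain ⟨m, hm⟩ := ho
  have hg : g = (g ^ 2) ^ (m + 1) := by
    rw [← pow_mul]
    have : 2 * (m + 1) = orderOf g + 1 := by omega
    rw [this, pow_succ, pow_orderOf_eq_one, one_mul]
  rw [hg]
  exact (Commute.pow_left (show Commute (g ^ 2) z from h) (m + 1)).eq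

theorem star_commute (hodd : Odd (Nat.card X)) (p : ℕ)
    (hstar : ∀ z z' : X, (∃ g, z' = g * z * g⁻¹) → z * z' = z' * z →
      (orderOf (z * z')).Coprime p → z' = z ∨ z * z' = 1)
    (z g : X) (hc : z * (g * z * g⁻¹) = (g * z * g⁻¹) * z)
    (ho : (orderOf (z * (g * z * g⁻¹))).Coprime p) : g * z = z * g := by
  rcases hstar z (g * z * g⁻¹) ⟨g, rfl⟩ hc ho with h | h
  · calc g * z = (g * z * g⁻¹) * g := by group
      _ = z * g := by rw [h]
  · apply commute_of_sq_commute hodd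
    have h1 : g * z * g⁻¹ = z⁻¹ := (inv_eq_of_mul_eq_one_right h).symm
    have h2 : g * z⁻¹ * g⁻¹ = z := by
      have : g * z⁻¹ * g⁻¹ = (g * z * g⁻¹)⁻¹ := by group
      rw [this, h1, inv_inv]
    calc g ^ 2 * z = g * (g * z * g⁻¹) * g⁻¹ * g ^ 2 := by
          rw [pow_two]; group
      _ = z * g ^ 2 := by rw [h1, h2]

theorem star_frobHyp (hodd : Odd (Nat.card X)) (p : ℕ) [hp : Fact p.Prime]
    (hstar : ∀ z z' : X, (∃ g, z' = g * z * g⁻¹) → z * z' = z' * z →
      (orderOf (z * z')).Coprime p → z' = z ∨ z * z' = 1)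
    (r : ℕ) [hr : Fact r.Prime] (hrp : r ≠ p) : Cfsg.Agent.Lib.Lead.FrobHyp r X := by
  intro Q hQ g hg _
  have hoQ : ∀ x ∈ Q, (orderOf x).Coprime p := by
    intro x hx
    obtain ⟨j, hj⟩ := (IsPGroup.iff_orderOf.1 hQ) ⟨x, hx⟩
    have hj' : orderOf x = r ^ j := by rw [← hj]; simp
    rw [hj']
    exact Nat.Coprime.pow_left _ ((Nat.coprime_primes hr.out hp.out).2 hrp)
  -- `Q` is abelian
  have hQc : ∀ x ∈ Q, ∀ y ∈ Q, x * y = y * x := by
    have hnil : Group.IsNilpotent Q := hQ.isNilpotent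
    by_contra hcon
    have hnc : ¬ (⊤ : Subgroup Q) ≤ Subgroup.center Q := by
      intro hle
      apply hcon
      intro x hx y hy
      have := (Subgroup.mem_center_iff.1 (hle (Subgroup.mem_top (⟨y, hy⟩ : Q)))) ⟨x, hx⟩
      exact congrArg Subtype.val this
    obtain ⟨x, -, hxZ, hx⟩ := exists_mem_not_mem_commutator_mem (Subgroup.center Q) ⊤ hnc
    apply hxZ
    rw [Subgroup.mem_center_iff]
    intro y
    -- `y x y⁻¹ = [y, x] x`, with `[y, x] = [x, y]⁻¹` central
    have hc : ⁅x, y⁆⁻¹ ∈ Subgroup.center Q := Subgroup.inv_mem _ (hx y)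
    have he : y * x * y⁻¹ = ⁅x, y⁆⁻¹ * x := by
      rw [commutatorElement_def]; group
    have hcomm : x * (y * x * y⁻¹) = (y * x * y⁻¹) * x := by
      rw [he, ← mul_assoc, (Subgroup.mem_center_iff.1 hc) x]
    have h1 := star_commute hodd p hstar (x : X) (y : X) (congrArg Subtype.val hcomm)
      (hoQ _ (Q.mul_mem x.2 (Q.mul_mem (Q.mul_mem y.2 x.2) (Q.inv_mem y.2))))
    exact Subtype.ext h1
  rw [Subgroup.mem_centralizer_iff]
  intro z hz
  have hz' : g * z * g⁻¹ ∈ Q := (Subgroup.mem_normalizer_iff.1 hg z).1 hz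
  exact (star_commute hodd p hstar z g (hQc z hz _ hz') (hoQ _ (Q.mul_mem hz hz'))).symm

/-- the product of two `p`-elements is a `p`-element. -/
theorem star_mul (hodd : Odd (Nat.card X)) (p : ℕ) [hp : Fact p.Prime]
    (hstar : ∀ z z' : X, (∃ g, z' = g * z * g⁻¹) → z * z' = z' * z →
      (orderOf (z * z')).Coprime p → z' = z ∨ z * z' = 1)
    (a b : X) (ha : ∃ i, orderOf a = p ^ i) (hb : ∃ j, orderOf b = p ^ j) :
    ∃ k, orderOf (a * b) = p ^ k := by
  obtain ⟨i, hi⟩ := ha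
  obtain ⟨j, hj⟩ := hb
  refine ⟨_, Nat.eq_prime_pow_of_unique_prime_dvd (orderOf_pos _).ne' ?_⟩
  intro d hd hdab
  by_contra hdq
  have : Fact d.Prime := ⟨hd⟩
  obtain ⟨N, hN, h1, k, h2⟩ := Cfsg.Agent.Lib.Lead.hasNormalPComplement_iff.mp
    (star_frobHyp hodd p hstar d hdq).hasNormalPComplement
  have ha : a ∈ N := (Cfsg.Agent.Lib.Lead.mem_iff_coprime_orderOf_of_normal_complement h1 h2 a).2
    (by rw [hi]; exact Nat.Coprime.pow_left _ ((Nat.coprime_primes hp.out hd).2 (Ne.symm hdq)))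
  have hb : b ∈ N := (Cfsg.Agent.Lib.Lead.mem_iff_coprime_orderOf_of_normal_complement h1 h2 b).2
    (by rw [hj]; exact Nat.Coprime.pow_left _ ((Nat.coprime_primes hp.out hd).2 (Ne.symm hdq)))
  have hab := (Cfsg.Agent.Lib.Lead.mem_iff_coprime_orderOf_of_normal_complement h1 h2 (a * b)).1
    (N.mul_mem ha hb)
  exact hd.one_lt.ne' (Nat.eq_one_of_dvd_coprimes hab hdab dvd_rfl)

end Cfsg.Agent.Lib.Helper25
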