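import Mathlib
import Cfsg.Agent.Lib.Helper25.OddStar

/-!
Finite subgroups of odd order of `GL₂(F)`, `char F = p`: if `p` divides the order, there is an invariant line.
-/

set_option autoImplicit false

namespace Cfsg.Agent.Lib.Helper25

open Matrix

variable {F : Type*} [Field F]

theorem cayley_hamilton_two (A : Matrix (Fin 2) (Fin 2) F) :
    A * A = A.trace • A - A.det • (1 : Matrix (Fin 2) (Fin 2) F) := by
  ext i j
  fin_cases i <;> fin_cases j <;>
    simp [Matrix.mul_apply, Fin.sum_univ_two, Matrix.trace_fin_two, Matrix.det_fin_two] <;> ring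

theorem key_identity (A B : Matrix (Fin 2) (Fin 2) F) (hA : A.det = 1) (hB : B.det = 1)
    (ht : A.trace = B.trace) (hc : A * B = B * A) : (B - A) * (A * B - 1) = 0 := by
  have hA2 := cayley_hamilton_two A
  have hB2 := cayley_hamilton_two B
  rw [hA, one_smul] at hA2
  rw [hB, one_smul, ← ht] at hB2
  have h1 : B * (A * B) = A.trace • (A * B) - A := by
    rw [← mul_assoc, ← hc, mul_assoc, hB2, mul_sub, mul_one, Matrix.mul_smul]
  have h2 : A * (A * B) = A.trace • (A * B) - B := by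
    rw [← mul_assoc, hA2, sub_mul, one_mul, Matrix.smul_mul]
  rw [sub_mul, mul_sub, mul_sub, mul_one, mul_one, h1, h2]
  abel

theorem det_sub_one (W : Matrix (Fin 2) (Fin 2) F) : (W - 1).det = W.det - W.trace + 1 := by
  simp [Matrix.det_fin_two, Matrix.trace_fin_two]
  ring

theorem eq_one_of_det_sub_one_eq_zero (p : ℕ) [CharP F p] (W : Matrix (Fin 2) (Fin 2) F)
    (hW : W.det = 1) (k : ℕ) (hk : W ^ k = 1) (hpk : ¬ p ∣ k) (hd : (W - 1).det = 0) : W = 1 := by
  rw [det_sub_one, hW] at hd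
  have ht : W.trace = 2 := by linear_combination -hd
  have hW2 := cayley_hamilton_two W
  rw [hW, ht, one_smul] at hW2
  obtain ⟨N, hN⟩ : ∃ N, N = W - 1 := ⟨_, rfl⟩
  have hWN : W = 1 + N := by rw [hN]; abel
  have hNN : N * N = 0 := by
    rw [hN, sub_mul, mul_sub, mul_sub, hW2, one_mul, mul_one, mul_one, two_smul]
    abel
  have hpow : ∀ k : ℕ, W ^ k = 1 + (k : F) • N := by
    intro k
    induction k with
    | zero => simp
    | succ k ih =>
      rw [pow_succ, ih, hWN, add_mul, mul_add, mul_add, one_mul, one_mul, mul_one, Matrix.smul_mul,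
        hNN, smul_zero, add_zero, Nat.cast_succ, add_smul, one_smul]
      abel
  rw [hpow k] at hk
  have h0 : (k : F) • N = 0 := by
    have := congrArg (fun M => M - 1) hk
    simpa using this
  have hk0 : (k : F) ≠ 0 := by
    rw [Ne, CharP.cast_eq_zero_iff F p k]
    exact hpk
  have hN0 : N = 0 := (smul_eq_zero.1 h0).resolve_left hk0
  rw [hWN, hN0, add_zero]

theorem mem_span_of_fixed (x : Matrix (Fin 2) (Fin 2) F) (hx : x ≠ 1) (v w : Fin 2 → F) (hv : v ≠ 0)
    (hxv : x *ᵥ v = v) (hxw : x *ᵥ w = w) : w ∈ Submodule.span F {v} := by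
  have e1 : ∀ i, x i 0 * v 0 + x i 1 * v 1 = v i := by
    intro i
    have := congrFun hxv i
    simpa [Matrix.mulVec, dotProduct, Fin.sum_univ_two] using this
  have e2 : ∀ i, x i 0 * w 0 + x i 1 * w 1 = w i := by
    intro i
    have := congrFun hxw i
    simpa [Matrix.mulVec, dotProduct, Fin.sum_univ_two] using this
  have hD : v 0 * w 1 - v 1 * w 0 = 0 := by
    by_contra hD
    apply hx
    have a0 := e1 0
    have a1 := e1 1
    have b0 := e2 0
    have b1 := e2 1
    have h00 : (x 0 0 - 1) * (v 0 * w 1 - v 1 * w 0) = 0 := by linear_combination w 1 * a0 - v 1 * b0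
    have h01 : (x 0 1) * (v 0 * w 1 - v 1 * w 0) = 0 := by linear_combination v 0 * b0 - w 0 * a0
    have h10 : (x 1 0) * (v 0 * w 1 - v 1 * w 0) = 0 := by linear_combination w 1 * a1 - v 1 * b1
    have h11 : (x 1 1 - 1) * (v 0 * w 1 - v 1 * w 0) = 0 := by linear_combination v 0 * b1 - w 0 * a1
    have g00 := (mul_eq_zero.1 h00).resolve_right hD
    have g01 := (mul_eq_zero.1 h01).resolve_right hD
    have g10 := (mul_eq_zero.1 h10).resolve_right hD
    have g11 := (mul_eq_zero.1 h11).resolve_right hD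
    ext i j
    fin_cases i <;> fin_cases j
    · simpa using sub_eq_zero.1 g00
    · simpa using g01
    · simpa using g10
    · simpa using sub_eq_zero.1 g11
  rw [Submodule.mem_span_singleton]
  by_cases h0 : v 0 = 0
  · have h1 : v 1 ≠ 0 := by
      intro h1
      apply hv
      ext i
      fin_cases i
      · exact h0
      · exact h1
    refine ⟨w 1 / v 1, ?_⟩
    ext i
    fin_cases i
    · simp only [Pi.smul_apply, smul_eq_mul, Fin.zero_eta]
      rw [h0, mul_zero]
      rw [h0, zero_mul, zero_sub, neg_eq_zero] at hD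
      exact ((mul_eq_zero.1 hD).resolve_left h1).symm
    · simp only [Pi.smul_apply, smul_eq_mul, Fin.mk_one]
      field_simp
  · refine ⟨w 0 / v 0, ?_⟩
    ext i
    fin_cases i
    · simp only [Pi.smul_apply, smul_eq_mul, Fin.zero_eta]
      field_simp
    · simp only [Pi.smul_apply, smul_eq_mul, Fin.mk_one]
      field_simp
      linear_combination -hD

section char

variable (p : ℕ) [hp : Fact p.Prime] [CharP F p]

theorem eq_one_of_pow_char_pow {μ : F} {k : ℕ} (h : μ ^ p ^ k = 1) : μ = 1 := by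
  have h1 : (μ - 1) ^ p ^ k = 0 := by
    rw [sub_pow_char_pow, h, one_pow, sub_self]
  exact sub_eq_zero.1 (pow_eq_zero_iff (pow_ne_zero _ hp.out.ne_zero) |>.1 h1)

theorem det_eq_one_of_pElement {x : GL (Fin 2) F} {k : ℕ} (h : x ^ p ^ k = 1) :
    (x : Matrix (Fin 2) (Fin 2) F).det = 1 := by
  apply eq_one_of_pow_char_pow p (k := k)
  rw [← Matrix.det_pow, ← Units.val_pow_eq_pow_val, h]
  simp

theorem exists_fixed_of_pElement_GL {x : GL (Fin 2) F} {k : ℕ} (h : x ^ p ^ k = 1) :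
    ∃ v : Fin 2 → F, v ≠ 0 ∧ (x : Matrix (Fin 2) (Fin 2) F) *ᵥ v = v := by
  have h1 : ((x : Matrix (Fin 2) (Fin 2) F) - 1) ^ p ^ k = 0 := by
    rw [sub_pow_char_pow_of_commute p k (Commute.one_right _), ← Units.val_pow_eq_pow_val, h]
    simp
  have h2 : ((x : Matrix (Fin 2) (Fin 2) F) - 1).det = 0 := by
    have := congrArg Matrix.det h1
    rw [Matrix.det_pow, Matrix.det_zero] at this
    exact (pow_eq_zero_iff (pow_ne_zero _ hp.out.ne_zero)).1 this
  obtain ⟨v, hv, hxv⟩ := Matrix.exists_mulVec_eq_zero_iff.2 h2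
  refine ⟨v, hv, ?_⟩
  rw [Matrix.sub_mulVec, Matrix.one_mulVec, sub_eq_zero] at hxv
  exact hxv

/-- property `(★)` for subgroups of `GL₂` consisting of matrices of determinant one. -/
theorem star_of_det_one (H₀ : Subgroup (GL (Fin 2) F)) [Finite H₀]
    (hdet : ∀ g ∈ H₀, (g : Matrix (Fin 2) (Fin 2) F).det = 1) :
    ∀ z z' : H₀, (∃ g, z' = g * z * g⁻¹) → z * z' = z' * z →
      (orderOf (z * z')).Coprime p → z' = z ∨ z * z' = 1 := by
  rintro z z' ⟨g, rfl⟩ hc ho
  set A : Matrix (Fin 2) (Fin 2) F := ((z : GL (Fin 2) F) : Matrix (Fin 2) (Fin 2) F) with hA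
  set B : Matrix (Fin 2) (Fin 2) F :=
    (((g * z * g⁻¹ : H₀) : GL (Fin 2) F) : Matrix (Fin 2) (Fin 2) F) with hB
  have hAB : A * B = (((z * (g * z * g⁻¹) : H₀) : GL (Fin 2) F) : Matrix (Fin 2) (Fin 2) F) := by
    simp [hA, hB]
  have hBA : B * A = ((((g * z * g⁻¹) * z : H₀) : GL (Fin 2) F) : Matrix (Fin 2) (Fin 2) F) := by
    simp [hA, hB]
  have hcomm : A * B = B * A := by rw [hAB, hBA, hc]
  have hdA : A.det = 1 := hdet _ z.2
  have hdB : B.det = 1 := hdet _ (g * z * g⁻¹).2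
  have htr : A.trace = B.trace := by
    have := Matrix.trace_units_conj ((g : GL (Fin 2) F)) A
    rw [← this, hB]
    simp [hA]
  have hkey := key_identity A B hdA hdB htr hcomm
  by_cases hW : A * B = 1
  · right
    apply Subtype.ext
    apply Units.ext
    rw [← hAB, hW]
    simp
  · left
    have hdW : (A * B - 1).det ≠ 0 := by
      intro hd
      apply hW
      apply eq_one_of_det_sub_one_eq_zero p (A * B) (by rw [Matrix.det_mul, hdA, hdB, one_mul])
        (orderOf (z * (g * z * g⁻¹))) ?_ ?_ hd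
      · rw [hAB, ← Units.val_pow_eq_pow_val, ← Subgroup.coe_pow, pow_orderOf_eq_one]
        simp
      · intro hd'
        exact hp.out.one_lt.ne' (Nat.eq_one_of_dvd_coprimes ho hd' dvd_rfl)
    have hu : IsUnit (A * B - 1).det := isUnit_iff_ne_zero.2 hdW
    have h0 : B - A = 0 := by
      calc B - A = (B - A) * ((A * B - 1) * (A * B - 1)⁻¹) := by
            rw [Matrix.mul_nonsing_inv _ hu, mul_one]
        _ = 0 := by rw [← mul_assoc, hkey, zero_mul]
    apply Subtype.ext
    apply Units.ext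
    exact sub_eq_zero.1 h0

/-- A finite subgroup of odd order of `GL₂(F)`, `char F = p`, of order divisible by `p` has an invariant line. -/
theorem exists_invariant_line (H : Subgroup (GL (Fin 2) F)) [Finite H] (hodd : Odd (Nat.card H))
    (hpH : p ∣ Nat.card H) :
    ∃ v : Fin 2 → F, v ≠ 0 ∧ ∀ g ∈ H, (g : Matrix (Fin 2) (Fin 2) F) *ᵥ v ∈ Submodule.span F {v} := by
  -- the determinant one part
  let H₀ : Subgroup (GL (Fin 2) F) := H ⊓ (Matrix.GeneralLinearGroup.det).ker
  have hH₀ : H₀ ≤ H := inf_le_left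
  have hfin : Finite H₀ := Finite.of_injective (Subgroup.inclusion hH₀) (Subgroup.inclusion_injective hH₀)
  have hdet : ∀ g ∈ H₀, (g : Matrix (Fin 2) (Fin 2) F).det = 1 := by
    intro g hg
    have h1 : Matrix.GeneralLinearGroup.det g = 1 := hg.2
    rw [← Matrix.GeneralLinearGroup.val_det_apply, h1]
    simp
  have hodd₀ : Odd (Nat.card H₀) := Odd.of_dvd_nat hodd (Subgroup.card_dvd_of_le hH₀)
  have hmemH₀ : ∀ x ∈ H, (∃ k, orderOf x = p ^ k) → x ∈ H₀ := by
    rintro x hx ⟨k, hk⟩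
    refine ⟨hx, ?_⟩
    show Matrix.GeneralLinearGroup.det x = 1
    apply Units.ext
    rw [Matrix.GeneralLinearGroup.val_det_apply]
    exact det_eq_one_of_pElement p (k := k) (by rw [← hk, pow_orderOf_eq_one])
  have hstar := star_of_det_one p H₀ hdet
  -- the subgroup of `p`-elements
  let P : Subgroup (GL (Fin 2) F) :=
    { carrier := {x | x ∈ H ∧ ∃ k, orderOf x = p ^ k}
      mul_mem' := by
        rintro a b ⟨ha, hak⟩ ⟨hb, hbk⟩
        refine ⟨H.mul_mem ha hb, ?_⟩
        obtain ⟨k, hk⟩ := star_mul hodd₀ p hstar ⟨a, hmemH₀ a ha hak⟩ ⟨b, hmemH₀ b hb hbk⟩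
          (by simpa using hak) (by simpa using hbk)
        refine ⟨k, ?_⟩
        rw [← hk, ← Subgroup.orderOf_coe]
        rfl
      one_mem' := ⟨H.one_mem, 0, by simp⟩
      inv_mem' := by
        rintro a ⟨ha, hak⟩
        exact ⟨H.inv_mem ha, by rwa [orderOf_inv]⟩ }
  have hPH : P ≤ H := fun x hx => hx.1
  have hPfin : Finite P := Finite.of_injective (Subgroup.inclusion hPH) (Subgroup.inclusion_injective hPH)
  have hPp : IsPGroup p P := by
    rintro ⟨x, hx, k, hk⟩
    refine ⟨k, ?_⟩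
    apply Subtype.ext
    rw [Subgroup.coe_pow, Subgroup.coe_one]
    show x ^ p ^ k = 1
    rw [← hk, pow_orderOf_eq_one]
  obtain ⟨x₀, hx₀⟩ := exists_prime_orderOf_dvd_card' (G := H) p hpH
  have hPnt : Nontrivial P := by
    refine ⟨⟨⟨(x₀ : GL (Fin 2) F), x₀.2, 1, by rw [Subgroup.orderOf_coe, hx₀, pow_one]⟩, 1, ?_⟩⟩
    intro h
    have h1 : (x₀ : GL (Fin 2) F) = 1 := congrArg Subtype.val h
    have h2 : x₀ = 1 := Subtype.ext h1
    rw [h2, orderOf_one] at hx₀
    exact hp.out.one_lt.ne hx₀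
  have hZnt : Nontrivial (Subgroup.center P) := hPp.center_nontrivial
  obtain ⟨⟨⟨c, hcP⟩, hcZ⟩, hc1⟩ := exists_ne (1 : Subgroup.center P)
  have hc1' : c ≠ 1 := by
    intro h
    apply hc1
    apply Subtype.ext
    apply Subtype.ext
    exact h
  obtain ⟨k, hk⟩ := hcP.2
  have hck : c ^ p ^ k = 1 := by rw [← hk, pow_orderOf_eq_one]
  obtain ⟨v, hv, hcv⟩ := exists_fixed_of_pElement_GL p hck
  refine ⟨v, hv, ?_⟩
  intro g hg
  -- the conjugate
  have hc'P : g * c * g⁻¹ ∈ P := by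
    refine ⟨H.mul_mem (H.mul_mem hg hcP.1) (H.inv_mem hg), k, ?_⟩
    have : g * c * g⁻¹ = MulAut.conj g c := by simp
    rw [this, MulEquiv.orderOf_eq, hk]
  have hcomm : (g * c * g⁻¹) * c = c * (g * c * g⁻¹) :=
    congrArg Subtype.val ((Subgroup.mem_center_iff.1 hcZ) ⟨g * c * g⁻¹, hc'P⟩)
  have hcM1 : (c : Matrix (Fin 2) (Fin 2) F) ≠ 1 := by
    intro h
    apply hc1'
    apply Units.ext
    simpa using h
  have hc'M1 : ((g * c * g⁻¹ : GL (Fin 2) F) : Matrix (Fin 2) (Fin 2) F) ≠ 1 := by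
    intro h
    apply hc1'
    have h1 : g * c * g⁻¹ = 1 := Units.ext (by simpa using h)
    have : c = g⁻¹ * (g * c * g⁻¹) * g := by group
    rw [this, h1]; group
  -- `c' v` is fixed by `c`
  have h1 : (c : Matrix (Fin 2) (Fin 2) F) *ᵥ
      (((g * c * g⁻¹ : GL (Fin 2) F) : Matrix (Fin 2) (Fin 2) F) *ᵥ v)
      = ((g * c * g⁻¹ : GL (Fin 2) F) : Matrix (Fin 2) (Fin 2) F) *ᵥ v := by
    rw [Matrix.mulVec_mulVec, ← Units.val_mul, ← hcomm, Units.val_mul, ← Matrix.mulVec_mulVec, hcv]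
  obtain ⟨μ, hμ⟩ := Submodule.mem_span_singleton.1 (mem_span_of_fixed _ hcM1 v _ hv hcv h1)
  -- `μ = 1`
  have hpowv : ∀ n : ℕ, (((g * c * g⁻¹ : GL (Fin 2) F) ^ n : GL (Fin 2) F) :
      Matrix (Fin 2) (Fin 2) F) *ᵥ v = μ ^ n • v := by
    intro n
    induction n with
    | zero => simp
    | succ n ih =>
      rw [pow_succ, Units.val_mul, ← Matrix.mulVec_mulVec, ← hμ, Matrix.mulVec_smul, ih, smul_smul,
        pow_succ, mul_comm]
  have hc'k : (g * c * g⁻¹) ^ p ^ k = 1 := by
    rw [conj_pow, hck]; group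
  have hμ1 : μ = 1 := by
    apply eq_one_of_pow_char_pow p (k := k)
    have h2 := hpowv (p ^ k)
    rw [hc'k] at h2
    simp only [Units.val_one, Matrix.one_mulVec] at h2
    by_contra hne
    apply hv
    have h3 : (μ ^ p ^ k - 1) • v = 0 := by rw [sub_smul, one_smul, ← h2, sub_self]
    exact (smul_eq_zero.1 h3).resolve_left (sub_ne_zero.2 hne)
  rw [hμ1, one_smul] at hμ
  -- `g v` is fixed by `c'`
  have h4 : ((g * c * g⁻¹ : GL (Fin 2) F) : Matrix (Fin 2) (Fin 2) F) *ᵥ
      ((g : Matrix (Fin 2) (Fin 2) F) *ᵥ v) = (g : Matrix (Fin 2) (Fin 2) F) *ᵥ v := by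
    rw [Matrix.mulVec_mulVec, ← Units.val_mul]
    have : g * c * g⁻¹ * g = g * c := by group
    rw [this, Units.val_mul, ← Matrix.mulVec_mulVec, hcv]
  exact mem_span_of_fixed _ hc'M1 v _ hv hμ.symm h4

end char

end Cfsg.Agent.Lib.Helper25
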